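import Cfsg.Agent.H41.HeTC.Kv.RChk0

set_option autoImplicit false
set_option linter.all false

namespace Cfsg.Agent.H41.HeP

open Cfsg.Agent.H35

theorem tkv_rall : ∀ p, p < 540 → tkv_rf p = true := by
  apply allR_blocks tkv_rf 540 10 1 _ (by decide)
  intro k hk
  interval_cases k
  · exact tkv_rchk_0

theorem tkv_circ_ok : circChk (fullW kv_rws kv_prels) tkv_circT 0 tkv_ccert = true := by decide +kernel
theorem tkv_hc_ok : allR (fun c => hcChk tkv_rsw tkv_hc1T tkv_hc2T c) 3 2 0 = true := by decide +kernel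
theorem tkv_h0 : RData.aord (tkv_rd.ent 0 1) = 0 := by decide +kernel

end Cfsg.Agent.H41.HeP
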