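import Cfsg.Agent.H41.HeTC.Kv.RTab

set_option autoImplicit false
set_option linter.all false
set_option Elab.async false

namespace Cfsg.Agent.H41.HeP

open Cfsg.Agent.H35

theorem tkv_rchk_0 : allR tkv_rf 540 10 (0 * 2 ^ 10) = true := by decide +kernel

end Cfsg.Agent.H41.HeP
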